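import Cfsg.Agent.BG.P11B

set_option autoImplicit false

/-! BG Theorem 12.8 (helper57). -/

namespace Cfsg.Agent.BG

open Subgroup Cfsg

universe u

/-- BG 12.8(c) (mathcomp `abelian_tau2_sub_Fitting`). -/
theorem L12_8c {G : Type u} [Group G] [Finite G] (hG : Cfsg.IsMinSimpleOddOrder G)
    (M : Subgroup G) (hM : IsCoatom M) (E : Subgroup G) (hE : Cfsg.IsComplIn E (Cfsg.sigmaCore M) M)
    (p : ℕ) [Fact p.Prime] (hp : p ∈ Cfsg.tau2 M) (A : Subgroup G)
    (hA : A ≤ E ∧ Cfsg.IsElementaryAbelian p A ∧ Nat.card A = p ^ 2)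
    (S : Sylow p G) (hAS : A ≤ (S : Subgroup G)) (hS : IsMulCommutative (S : Subgroup G)) :
    (S : Subgroup G) ≤ ⁅Subgroup.normalizer ((S : Subgroup G) : Set G), Subgroup.normalizer ((S : Subgroup G) : Set G)⁆ ∧
      ⁅Subgroup.normalizer ((S : Subgroup G) : Set G), Subgroup.normalizer ((S : Subgroup G) : Set G)⁆ ≤ Cfsg.fittingOf E ∧
      Cfsg.fittingOf E ≤ Subgroup.centralizer ((S : Subgroup G) : Set G) ∧
      Subgroup.centralizer ((S : Subgroup G) : Set G) ≤ E ∧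
      Cfsg.fittingOf (Subgroup.normalizer (A : Set G)) = Cfsg.fittingOf E := by
  exact (P11.L12_8c' hG M hM E hE p hp A hA S hAS hS).1

/-- BG 12.8(a,b,d,e) (mathcomp `abelian_tau2`). -/
theorem L12_8 {G : Type u} [Group G] [Finite G] (hG : Cfsg.IsMinSimpleOddOrder G)
    (M : Subgroup G) (hM : IsCoatom M) (E E₁ E₂ E₃ : Subgroup G) (hE : SigmaCompl M E E₁ E₂ E₃)
    (p : ℕ) [Fact p.Prime] (hp : p ∈ Cfsg.tau2 M) (A : Subgroup G)
    (hA : A ≤ E ∧ Cfsg.IsElementaryAbelian p A ∧ Nat.card A = p ^ 2)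
    (S : Sylow p G) (hAS : A ≤ (S : Subgroup G)) (hS : IsMulCommutative (S : Subgroup G)) :
    (E ≤ Subgroup.normalizer (E₂ : Set G) ∧ IsMulCommutative E₂) ∧
      Cfsg.IsPiHall (Cfsg.tau2 M) E₂ ∧
      (Subgroup.normalizer (A : Set G) = Subgroup.normalizer ((S : Subgroup G) : Set G) ∧
        Subgroup.normalizer ((S : Subgroup G) : Set G) = Subgroup.normalizer (E₂ : Set G) ∧
        Subgroup.normalizer (E₂ : Set G) = Subgroup.normalizer ((E₃ ⊔ E₂ : Subgroup G) : Set G) ∧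
        Subgroup.normalizer ((E₃ ⊔ E₂ : Subgroup G) : Set G) = Subgroup.normalizer ((Cfsg.fittingOf E : Subgroup G) : Set G)) ∧
      ∀ X : Subgroup G, X ≤ E₁ → (Nat.card X).Prime →
        Cfsg.sigmaCore M ⊓ Subgroup.centralizer (X : Set G) = ⊥ → E ≤ Subgroup.centralizer (X : Set G) := by
  exact P11.L12_8' hG M hM E E₁ E₂ E₃ hE p hp A hA S hAS hS

/-- BG 12.8(f) (mathcomp `abelian_tau2_norm_Sylow`). -/
theorem L12_8f {G : Type u} [Group G] [Finite G] (hG : Cfsg.IsMinSimpleOddOrder G)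
    (M : Subgroup G) (hM : IsCoatom M) (E : Subgroup G) (hE : Cfsg.IsComplIn E (Cfsg.sigmaCore M) M)
    (p : ℕ) [Fact p.Prime] (hp : p ∈ Cfsg.tau2 M) (A : Subgroup G)
    (hA : A ≤ E ∧ Cfsg.IsElementaryAbelian p A ∧ Nat.card A = p ^ 2)
    (S : Sylow p G) (hAS : A ≤ (S : Subgroup G)) (hS : IsMulCommutative (S : Subgroup G))
    (X : Subgroup G) (hX : X ≤ Subgroup.normalizer ((S : Subgroup G) : Set G)) :
    Subgroup.normalizer ((S : Subgroup G) : Set G) ≤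
        Subgroup.normalizer (((S : Subgroup G) ⊓ Subgroup.centralizer (X : Set G) : Subgroup G) : Set G) ∧
      Subgroup.normalizer ((S : Subgroup G) : Set G) ≤
        Subgroup.normalizer ((⁅(S : Subgroup G), X⁆ : Subgroup G) : Set G) := by
  obtain ⟨⟨h1, h2, h3, h4, h5⟩, -⟩ := P11.L12_8c' hG M hM E hE p hp A hA S hAS hS
  exact P11.L12_8f' le_rfl (h2.trans h3) hX

end Cfsg.Agent.BG
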