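import Cfsg.Agent.BG.L13_10

set_option autoImplicit false
set_option linter.style.haveILetI false

/-! BG Corollary 13.11. -/

namespace Cfsg.Agent.BG

open Subgroup Cfsg

universe u

/-- BG 13.11 (mathcomp `tau13_nonregular`). -/
theorem L13_11 {G : Type u} [Group G] [Finite G] (hG : Cfsg.IsMinSimpleOddOrder G)
    (M : Subgroup G) (hM : IsCoatom M) (E E₁ E₂ E₃ : Subgroup G) (hE : SigmaCompl M E E₁ E₂ E₃)
    (hreg : ¬ SemiReg (Cfsg.sigmaCore M) E₃) :
    E₁ ≠ ⊥ ∧ E₂ = ⊥ ∧ Cfsg.IsComplIn E₃ E₁ E ∧ PrimeAct (Cfsg.sigmaCore M) E ∧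
      ∀ X : Subgroup G, X ≤ E → (Nat.card X).Prime → E ≤ Subgroup.normalizer (X : Set G) := by
  have hτ2 := S13.tau2_empty hG hM hE hreg
  have hE₂ := S13.E₂_eq_bot hE hτ2
  obtain ⟨⟨hE₃d, hE₃n⟩, hE₁1, ⟨hE₁c, hE₃c⟩, ⟨-, -, hcompl, -, -⟩, hE₃Z⟩ := L12_1 hG M hM E E₁ E₂ E₃ hE
  have hE₁ne := hE₁1 hE₂
  rw [hE₂, bot_sup_eq] at hcompl
  have hcent : ∀ P : Subgroup G, P ≤ E₁ → (Nat.card P).Prime → P ≤ centralizer (E₃ : Set G) := by
    intro P hP hPc
    by_contra hc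
    exact hreg (L13_10 hG M hM E E₁ E₂ E₃ hE P hP hPc hc).2.1
  have hE₃ne : E₃ ≠ ⊥ := by
    rintro rfl
    exact hreg (fun x hx hx1 => absurd (Subgroup.mem_bot.1 hx) hx1)
  have hns : ¬ SemiReg E₃ E₁ := by
    intro hs
    obtain ⟨p, P, hpp, hP, hPc⟩ := S13.exists_prime_card hE₁ne
    obtain ⟨⟨z, hz⟩, hz'⟩ := Subgroup.ne_bot_iff_exists_ne_one.1 (S13.ne_bot_of_card hpp hPc)
    have hz1 : z ≠ 1 := fun h => hz' (Subtype.ext h)
    have h1 := hs z (hP hz) hz1
    apply hE₃ne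
    rw [eq_bot_iff, ← h1]
    exact le_inf le_rfl ((S13.le_centralizer_comm (hcent P hP (by rw [hPc]; exact hpp))).trans
      (centralizer_le (Set.singleton_subset_iff.2 hz)))
  have hsup : E₃ ⊔ E₁ = E := by
    apply le_antisymm (sup_le hcompl.1 hcompl.2.1)
    intro e he
    obtain ⟨a, ha, b, hb, rfl⟩ := hcompl.2.2.2 e he
    exact mul_mem (Subgroup.mem_sup_left ha) (Subgroup.mem_sup_right hb)
  have hprime := L13_7 hG M hM E E₁ E₂ E₃ hE hns
  rw [hsup] at hprime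
  refine ⟨hE₁ne, hE₂, hcompl, hprime, ?_⟩
  intro X hX hXc
  have hdE : Nat.card X ∣ Nat.card E := Subgroup.card_dvd_of_le hX
  have hpr : ∀ s : ℕ, s.Prime → s ∣ Nat.card X → s = Nat.card X := fun s hs hd =>
    (Nat.prime_dvd_prime_iff_eq hs hXc).1 hd
  rcases (partition_compl hG M hM E hE.compl _ hXc).1 hdE with h | h | h
  · obtain ⟨g, hg, hgX⟩ := S13.conj_into_E₁ hG hM hE hE.hall₁.1 le_rfl hX
      (fun s hs hd => by rw [hpr s hs hd]; exact h)
    set Y := X.map (MulAut.conj g).toMonoidHom with hY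
    have hYc : (Nat.card Y).Prime := by
      rw [hY, Subgroup.card_map_of_injective (MulAut.conj g).injective]; exact hXc
    have hYn : E ≤ normalizer (Y : Set G) := by
      rw [← hsup]
      apply sup_le
      · exact (S13.le_centralizer_comm (hcent Y hgX hYc)).trans (Subgroup.centralizer_le_normalizer _)
      · exact S13.le_normalizer_of_le_cyclic hE₁c hgX Subgroup.le_normalizer
    have hXY : X = Y := by
      have h1 : Y.map (MulAut.conj g⁻¹).toMonoidHom = X := map_conj_inv_conj g X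
      have h2 : Y.map (MulAut.conj g⁻¹).toMonoidHom = Y := by
        have h3 : g⁻¹ ∈ normalizer (Y : Set G) := hYn (E.inv_mem hg)
        exact S10c.map_conj_eq_of_mem_normalizer h3
      exact h1.symm.trans h2
    rw [hXY]; exact hYn
  · exact absurd h (hτ2 _)
  · have hX3 : X ≤ E₃ := S13.le_E₃ hG hM hE hX (fun s hs hd => by rw [hpr s hs hd]; exact h)
    exact S13.le_normalizer_of_le_cyclic hE₃c hX3 hE₃n

end Cfsg.Agent.BG
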