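import Cfsg.Agent.BG.L13_11

set_option autoImplicit false
set_option linter.style.haveILetI false

/-! BG Lemma 13.13. -/

namespace Cfsg.Agent.BG

open Subgroup Cfsg

universe u

/-- BG 13.13: if `P` (of prime order `p ∈ τ₁(M) ∪ τ₃(M)`) is not regular on `M_σ` then `p ∈ σ(M*)` for every
maximal `M*` containing `N_G(P)`. -/
theorem L13_13 {G : Type u} [Group G] [Finite G] (hG : Cfsg.IsMinSimpleOddOrder G)
    (M : Subgroup G) (hM : IsCoatom M) (E : Subgroup G) (hE : Cfsg.IsComplIn E (Cfsg.sigmaCore M) M)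
    (p : ℕ) [Fact p.Prime] (hp : p ∈ Cfsg.tau1 M ∨ p ∈ Cfsg.tau3 M) (P : Subgroup G) (hPE : P ≤ E) (hPp : Nat.card P = p)
    (hreg : Cfsg.sigmaCore M ⊓ Subgroup.centralizer (P : Set G) ≠ ⊥)
    (Mstar : Subgroup G) (hMs : IsCoatom Mstar) (hN : Subgroup.normalizer (P : Set G) ≤ Mstar) :
    p ∈ Cfsg.sigma Mstar := by
  have hpp : p.Prime := Fact.out
  have hPpg : IsPGroup p P := S13.isPGroup_of_card_eq hPp
  have hP1 : P ≠ ⊥ := S13.ne_bot_of_card hpp hPp
  rcases L12_2a hG Mstar hMs p P hPpg hN with h | hp2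
  · exact h
  exfalso
  have hMH : NotConj M Mstar := L12_2b hG M Mstar hM hMs p P hPpg (hPE.trans hE.1) hN (Or.inr hp)
  obtain ⟨x, X, hxx, hX, hXc⟩ := S13.exists_prime_card hreg
  haveI : Fact x.Prime := ⟨hxx⟩
  have hXσ : X ≤ Cfsg.sigmaCore M := hX.trans inf_le_left
  have hxσ : x ∈ Cfsg.sigma M := S13.mem_sigma_of_dvd_le hxx hXσ (by rw [hXc])
  have hxH : x ∉ Cfsg.sigma Mstar := by
    intro h1
    have h2 := L13_9 hG M Mstar hM hMs hMH
    have h3 : x ∈ Cfsg.sigma M ∩ Cfsg.sigma Mstar := ⟨hxσ, h1⟩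
    rw [h2] at h3; exact h3
  have hpr : ∀ s : ℕ, s.Prime → s ∣ Nat.card P → s = p := fun s hs hd => by
    rw [hPp] at hd; exact (Nat.prime_dvd_prime_iff_eq hs hpp).1 hd
  have hCP : centralizer (P : Set G) ≤ Mstar := (Subgroup.centralizer_le_normalizer _).trans hN
  have hOM : OnlyMax (centralizer (X : Set G)) M := by
    rcases hp with hp1 | hp3
    · obtain ⟨E₁, E₂, E₃, hE', hPE₁⟩ := S13.exists_tau1_ge' hG hM hE hPE
        (fun s hs hd => by rw [hpr s hs hd]; exact hp1)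
      exact (L13_6 hG M hM E hE E₁ hE'.hall₁ P hPE₁ hP1 x X hX hXc).1
    · obtain ⟨E₁, E₂, E₃, hE'⟩ := exists_sigmaCompl hG M hM E hE
      have hPE₃ : P ≤ E₃ := S13.le_E₃ hG hM hE' hPE (fun s hs hd => by rw [hpr s hs hd]; exact hp3)
      obtain ⟨⟨z, hz⟩, hz'⟩ := Subgroup.ne_bot_iff_exists_ne_one.1 hP1
      have hz1 : z ≠ 1 := fun h => hz' (Subtype.ext h)
      have hns : ¬ SemiReg (Cfsg.sigmaCore M) E₃ := by
        intro hs
        apply hreg
        have h4 := hs z (hPE₃ hz) hz1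
        rw [eq_bot_iff, ← h4]
        exact inf_le_inf_left _ (centralizer_le (Set.singleton_subset_iff.2 hz))
      obtain ⟨hE₁, -, -, hprime, -⟩ := L13_11 hG M hM E E₁ E₂ E₃ hE' hns
      refine (L13_6 hG M hM E hE E₁ hE'.hall₁ E₁ le_rfl hE₁ x X ?_ hXc).1
      rw [S13.primeAct_of_le hprime hPE hP1] at hX
      exact hX.trans (inf_le_inf_left _ (centralizer_le hE'.hall₁.1))
  exact S13.false_of_tau2 hG hMs hpp hxx hp2 hxH ((hX.trans inf_le_right).trans hCP) hXc hPp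
    (hX.trans inf_le_right) hCP hOM.1 (S13.rank1_of_tau13 hp)

end Cfsg.Agent.BG
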