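import Mathlib
import Cfsg.Prelude.Def_OddOrderLocal
import Cfsg.Agent.H53.Sec14b

set_option autoImplicit false

/-! BG Lemma 14.6 (dichotomy for the σ-decomposition of an element). -/

namespace Cfsg.Agent.BG

/-- BG 14.6, existence: every `g ≠ 1` is `x r` with `x ∈ M_σ`, `x ≠ 1`, `r ∈ R(x)` for some maximal `M`, or
`g = y y'` with `y ∈ M_σ`, `y ≠ 1` and `y' ≠ 1` a `κ(M)`-element of `C_M(y)`. -/
theorem L14_6 {G : Type*} [Group G] [Finite G] (hG : Cfsg.IsMinSimpleOddOrder G) (g : G) (hg : g ≠ 1) :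
    (∃ (M : Subgroup G) (x : G), IsCoatom M ∧ x ∈ Cfsg.sigmaCore M ∧ x ≠ 1 ∧ x⁻¹ * g ∈ Cfsg.supportR M x) ∨
      ∃ (M : Subgroup G) (y : G), IsCoatom M ∧ y ∈ Cfsg.sigmaCore M ∧ y ≠ 1 ∧
        y⁻¹ * g ∈ M ⊓ Subgroup.centralizer ({y} : Set G) ∧ y⁻¹ * g ≠ 1 ∧
        ∀ p : ℕ, p.Prime → p ∣ orderOf (y⁻¹ * g) → p ∈ Cfsg.kappa M :=
  H53.Sig.dichotomy hG g hg

/-- BG 14.6, the two cases exclude each other. -/
theorem L14_6_excl {G : Type*} [Group G] [Finite G] (hG : Cfsg.IsMinSimpleOddOrder G) (g : G)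
    (M : Subgroup G) (x : G) (hM : IsCoatom M) (hx : x ∈ Cfsg.sigmaCore M) (hx1 : x ≠ 1)
    (hr : x⁻¹ * g ∈ Cfsg.supportR M x)
    (N : Subgroup G) (y : G) (hN : IsCoatom N) (hy : y ∈ Cfsg.sigmaCore N) (hy1 : y ≠ 1)
    (hy' : y⁻¹ * g ∈ N ⊓ Subgroup.centralizer ({y} : Set G)) (hy'1 : y⁻¹ * g ≠ 1)
    (hk : ∀ p : ℕ, p.Prime → p ∣ orderOf (y⁻¹ * g) → p ∈ Cfsg.kappa N) : False :=
  H53.Sig.dichotomy_excl hG g M x hM hx hx1 hr N y hN hy hy1 hy' hy'1 hk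

end Cfsg.Agent.BG
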