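import Mathlib
import Cfsg.Agent.BG.MetaCop
import Cfsg.Agent.BG.Huppert
import Cfsg.Agent.OddP.CyclicMaxOmega

set_option autoImplicit false

/-! `Ω₁` of metacyclic `p`-groups, `p` odd. -/

namespace Cfsg.Agent.BG

open Cfsg

universe u

theorem mul_pow_eq_one_of_metacyclic {R : Type u} [Group R] [Finite R] {p : ℕ} [hp : Fact p.Prime] (hp2 : p ≠ 2)
    (hR : IsPGroup p R) (hm : Cfsg.IsMetacyclic R) {x y : R} (hx : x ^ p = 1) (hy : y ^ p = 1) : (x * y) ^ p = 1 := by
  classical
  obtain ⟨N, hN, hNc, hRN⟩ := hm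
  letI : CommGroup (R ⧸ N) := IsCyclic.commGroup
  let f : R →* R ⧸ N := (powMonoidHom p).comp (QuotientGroup.mk' N)
  set M : Subgroup R := f.ker with hM
  have hxM : ∀ z : R, z ^ p = 1 → z ∈ M := by
    intro z hz
    change ((z : R) : R ⧸ N) ^ p = 1
    rw [← QuotientGroup.mk_pow, hz]; rfl
  have hNM : N ≤ M := by
    intro z hz
    change ((z : R) : R ⧸ N) ^ p = 1
    rw [(QuotientGroup.eq_one_iff z).mpr hz, one_pow]
  have hidx : (N.subgroupOf M).index ≤ p := by
    haveI := Fintype.ofFinite (R ⧸ N)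
    have h1 := IsCyclic.card_pow_eq_one_le (α := R ⧸ N) (n := p) hp.out.pos
    rw [← Fintype.card_subtype, ← Nat.card_eq_fintype_card] at h1
    refine le_trans ?_ h1
    let k : (M ⧸ N.subgroupOf M) → {q : R ⧸ N // q ^ p = 1} :=
      Quotient.lift (fun m : M => (⟨((m : R) : R ⧸ N), m.2⟩ : {q : R ⧸ N // q ^ p = 1})) (by
        intro a b hab
        apply Subtype.ext
        have h2 := QuotientGroup.leftRel_apply.mp hab
        exact QuotientGroup.eq.mpr (Subgroup.mem_subgroupOf.mp h2))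
    refine Nat.card_le_card_of_injective k ?_
    intro a b hab
    obtain ⟨a, rfl⟩ := QuotientGroup.mk_surjective a
    obtain ⟨b, rfl⟩ := QuotientGroup.mk_surjective b
    have h2 : ((a : R) : R ⧸ N) = ((b : R) : R ⧸ N) := congrArg Subtype.val hab
    rw [QuotientGroup.eq] at h2 ⊢
    exact Subgroup.mem_subgroupOf.mpr h2
  have hcyc : IsCyclic (N.subgroupOf M) :=
    isCyclic_of_injective (Subgroup.subgroupOfEquivOfLe hNM).toMonoidHom (Subgroup.subgroupOfEquivOfLe hNM).injective
  have hMp : IsPGroup p M := hR.to_subgroup M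
  obtain ⟨k, hk⟩ := hMp.index (N.subgroupOf M)
  have hk1 : k ≤ 1 := by
    rw [hk] at hidx
    have : p ^ k ≤ p ^ 1 := by rwa [pow_one]
    exact (Nat.pow_le_pow_iff_right hp.out.one_lt).mp this
  have hmul : ∀ a b : M, (a * b) ^ p = a ^ p * b ^ p := by
    interval_cases k
    · rw [pow_zero, Subgroup.index_eq_one] at hk
      have hMc : IsCyclic M := by
        rw [hk] at hcyc
        exact isCyclic_of_surjective (Subgroup.topEquiv : (⊤ : Subgroup M) ≃* M).toMonoidHom Subgroup.topEquiv.surjective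
      intro a b
      exact (show Commute a b from (IsCyclic.commGroup (α := M)).mul_comm a b).mul_pow p
    · rw [pow_one] at hk
      exact OddP.mul_pow_of_cyclic_max hp2 hMp _ hcyc hk
  have h1 := hmul ⟨x, hxM x hx⟩ ⟨y, hxM y hy⟩
  have h2 : (x * y) ^ p = x ^ p * y ^ p := congrArg Subtype.val h1
  rw [h2, hx, hy, one_mul]

end Cfsg.Agent.BG
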