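import Mathlib
import Cfsg.Agent.BG.Narrow
import Cfsg.Agent.BG.RankOne
import Cfsg.Agent.BG.Sec4c

set_option autoImplicit false
open scoped commutatorElement

/-! A `p`-group (`p` odd, rank at least 3) with a maximal elementary abelian subgroup of order `p ^ 2` is narrow. -/

namespace Cfsg.Agent.BG

open Cfsg

universe u
variable {R : Type u} [Group R]

theorem narrow_of_max [Finite R] {p : ℕ} [hp : Fact p.Prime] (hp2 : p ≠ 2) (hR : IsPGroup p R)
    (hr : ¬ Cfsg.PRankLE p 2 R) (E : Subgroup R) (hE : Cfsg.IsElementaryAbelian p E) (hE2 : Nat.card E = p ^ 2)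
    (hEmax : ∀ B : Subgroup R, Cfsg.IsElementaryAbelian p B → E ≤ B → B = E) : Cfsg.IsNarrow p R := by
  have hp1 : 1 < p := hp.out.one_lt
  have hp0 : 0 < p := hp.out.pos
  obtain ⟨hET, hZc, hWe, hWc, hTi, hZE, hEW⟩ := bg52 hp2 hR (exists_normal_elementary_cube hp2 hR hr) E hE hE2 hEmax
    (fun hEn => by
      haveI := hEn
      obtain ⟨B, hEB, -, hBe, hBc⟩ := exists_scn_ge hp2 hR hr E hE hE2
      exact ⟨B, hEB, hBe, hBc⟩)
  set T := Subgroup.centralizer (omegaZ2 p R : Set R) with hT
  have hTn : T.Normal := inferInstance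
  obtain ⟨r, hrE, hrT⟩ := SetLike.not_le_iff_exists.mp hET
  have hrp : r ^ p = 1 := hE.2 r hrE
  have hr1 : r ≠ 1 := by rintro rfl; exact hrT (one_mem _)
  have hro : orderOf r = p := orderOf_eq_prime hrp hr1
  have hZT : omegaZ p R ≤ T := by
    intro z hz
    rw [hT, Subgroup.mem_centralizer_iff]
    intro w _
    exact Subgroup.mem_center_iff.mp (omegaZ_le_center p hz) w
  have hEp : IsPGroup p E := IsElementaryAbelian.isPGroup hE
  have hEgen : omegaZ p R ⊔ Subgroup.zpowers r = E := by
    have h1 : omegaZ p R ⊔ Subgroup.zpowers r ≤ E := sup_le hZE (Subgroup.zpowers_le.mpr hrE)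
    have h2 : omegaZ p R < omegaZ p R ⊔ Subgroup.zpowers r := lt_of_le_of_ne le_sup_left fun h => hrT (hZT (by
      rw [h]; exact (le_sup_right : Subgroup.zpowers r ≤ _) (Subgroup.mem_zpowers r)))
    have h3 := card_mul_le_of_lt (hEp.to_le h1) h2
    exact Subgroup.eq_of_le_of_card_ge h1 (by rw [hE2, pow_two]; rw [hZc] at h3; exact h3)
  have hETZ : E ⊓ T = omegaZ p R := by
    have h3 : omegaZ p R ≤ E ⊓ T := le_inf hZE hZT
    have h4 : E ⊓ T < E := lt_of_le_of_ne inf_le_left (fun h => hET (by rw [← h]; exact inf_le_right))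
    have h5 := card_mul_le_of_lt hEp h4
    rw [hE2, pow_two] at h5
    exact (Subgroup.eq_of_le_of_card_ge h3 (by rw [hZc]; exact Nat.le_of_mul_le_mul_right h5 hp0)).symm
  -- elements of order p of T commuting with r are in Z
  have hstar : ∀ x ∈ T, x ^ p = 1 → r * x = x * r → x ∈ omegaZ p R := by
    intro x hx hxp hrx
    rw [← hETZ]
    refine ⟨?_, hx⟩
    have h1 : E ⊔ Subgroup.zpowers x = E := by
      refine hEmax _ (IsElementaryAbelian.sup hE (IsElementaryAbelian.zpowers hxp) ?_) le_sup_left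
      rw [← hEgen, Subgroup.le_centralizer_iff, Subgroup.zpowers_le, centralizer_sup]
      refine ⟨?_, Subgroup.mem_centralizer_iff.mpr ?_⟩
      · refine Subgroup.mem_centralizer_iff.mpr fun z hz => ?_
        exact (Subgroup.mem_center_iff.mp (omegaZ_le_center p hz) x).symm
      · rintro _ ⟨n, rfl⟩
        exact (Commute.zpow_left (show Commute r x from hrx) n)
    rw [← h1]
    exact (le_sup_right : Subgroup.zpowers x ≤ _) (Subgroup.mem_zpowers x)
  set C := T ⊓ Subgroup.centralizer ({r} : Set R) with hC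
  have hCcyc : IsCyclic C := by
    refine isCyclic_of_rank_one hp2 (hR.to_subgroup C) ?_
    rw [pRankLE_iff]
    intro B hBC hB
    have h1 : B ≤ omegaZ p R := fun x hx =>
      hstar x (hBC hx).1 (hB.2 x hx) (Subgroup.mem_centralizer_iff.mp (hBC hx).2 r rfl)
    rw [pow_one, ← hZc]
    exact card_le_of_le h1
  right
  refine ⟨Subgroup.zpowers r, C, by rw [Nat.card_zpowers, hro], hCcyc, ?_, ?_, ?_⟩
  · -- trivial intersection
    rw [eq_bot_iff]
    intro x hx
    by_contra hx1
    rw [Subgroup.mem_bot] at hx1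
    have h1 : Subgroup.zpowers x = Subgroup.zpowers r := by
      refine Subgroup.eq_of_le_of_card_ge (Subgroup.zpowers_le.mpr hx.1) ?_
      rw [Nat.card_zpowers, Nat.card_zpowers, hro]
      have h2 : orderOf x ∣ p := by
        rw [← hro, ← Nat.card_zpowers r]
        have := orderOf_dvd_natCard (⟨x, hx.1⟩ : Subgroup.zpowers r)
        rwa [Subgroup.orderOf_mk] at this
      rcases (Nat.dvd_prime hp.out).mp h2 with h3 | h3
      · exact absurd (orderOf_eq_one_iff.mp h3) hx1
      · exact h3.ge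
    exact hrT (Subgroup.zpowers_le.mp (h1 ▸ Subgroup.zpowers_le.mpr hx.2.1 : Subgroup.zpowers r ≤ T))
  · rintro _ ⟨n, rfl⟩ b hb
    have h1 : Commute r b := Subgroup.mem_centralizer_iff.mp hb.2 r rfl
    exact h1.zpow_left n
  · apply le_antisymm
    · refine sup_le ?_ ?_
      · rw [Subgroup.le_centralizer_iff_isMulCommutative]; infer_instance
      · intro b hb
        rw [Subgroup.mem_centralizer_iff]
        rintro _ ⟨n, rfl⟩
        have h1 : Commute r b := Subgroup.mem_centralizer_iff.mp hb.2 r rfl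
        exact h1.zpow_left n
    · intro c hc
      have hcr : Commute r c := Subgroup.mem_centralizer_iff.mp hc r (Subgroup.mem_zpowers r)
      -- R = <r> T
      have htop : Subgroup.zpowers r ⊔ T = ⊤ := by
        have h1 : T < Subgroup.zpowers r ⊔ T := lt_of_le_of_ne le_sup_right fun h => hrT (by
          rw [h]; exact (le_sup_left : Subgroup.zpowers r ≤ _) (Subgroup.mem_zpowers r))
        have h2 := card_mul_le_of_lt (hR.to_subgroup _) h1
        refine Subgroup.eq_top_of_card_eq _ (le_antisymm (Subgroup.card_le_card_group _) ?_)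
        have h3 := T.card_mul_index
        rw [hTi] at h3
        rw [← h3]; exact h2
      have h1 : c ∈ Subgroup.zpowers r ⊔ T := htop ▸ Subgroup.mem_top c
      obtain ⟨y, hy, t, ht, rfl⟩ := Subgroup.mem_sup_of_normal_right.mp h1
      refine Subgroup.mul_mem _ ((le_sup_left : Subgroup.zpowers r ≤ _) hy) ((le_sup_right : C ≤ _) ⟨ht, ?_⟩)
      obtain ⟨n, rfl⟩ := hy
      refine Subgroup.mem_centralizer_iff.mpr ?_
      intro w hw
      rw [Set.mem_singleton_iff.mp hw]
      have h2 : Commute r ((r ^ n)⁻¹ * (r ^ n * t)) :=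
        (((Commute.refl r).zpow_right n).inv_right).mul_right hcr
      rw [inv_mul_cancel_left] at h2
      exact h2

/-- if some elementary abelian subgroup has centraliser of rank at most two, the group is narrow. -/
theorem narrow_of_centralizer [Finite R] {p : ℕ} [hp : Fact p.Prime] (hp2 : p ≠ 2) (hR : IsPGroup p R)
    (E : Subgroup R) (hE : Cfsg.IsElementaryAbelian p E)
    (hr : Cfsg.PRankLE p 2 (Subgroup.centralizer (E : Set R))) : Cfsg.IsNarrow p R := by
  have hp1 : 1 < p := hp.out.one_lt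
  by_cases hrR : Cfsg.PRankLE p 2 R
  · exact Or.inl hrR
  -- a maximal elementary abelian subgroup containing E
  obtain ⟨B, ⟨hEB, hB⟩, hmax⟩ := Set.exists_max_image
    {B : Subgroup R | E ≤ B ∧ Cfsg.IsElementaryAbelian p B} (fun B => Nat.card B) (Set.toFinite _) ⟨E, le_rfl, hE⟩
  have hBmax : ∀ D : Subgroup R, Cfsg.IsElementaryAbelian p D → B ≤ D → D = B := fun D hD hBD =>
    (Subgroup.eq_of_le_of_card_ge hBD (hmax D ⟨hEB.trans hBD, hD⟩)).symm
  have hBC : B ≤ Subgroup.centralizer (E : Set R) := by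
    intro b hb
    rw [Subgroup.mem_centralizer_iff]
    intro e he
    exact commute_of_isMulCommutative hB.1 (hEB he) hb
  have hB2 : Nat.card B ≤ p ^ 2 := pRankLE_iff.mp hr B hBC hB
  obtain ⟨V, hVn, hVe, hVc⟩ := exists_normal_elementary_cube hp2 hR hrR
  obtain ⟨n, hn⟩ := IsElementaryAbelian.card_eq_pow hB
  have hn2 : n ≤ 2 := by
    rw [hn] at hB2
    exact (Nat.pow_le_pow_iff_right hp1).mp hB2
  -- central element of order p
  have hVne : V ≠ ⊥ := by
    rintro rfl
    rw [Subgroup.card_bot] at hVc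
    have : 1 < p ^ 3 := Nat.one_lt_pow (by norm_num) hp1
    omega
  obtain ⟨z, -, hzo, hzc⟩ := H23.exists_central_orderOf hR hVn hVne
  have hzp : z ^ p = 1 := by rw [← hzo]; exact pow_orderOf_eq_one z
  have hzB : z ∈ B := by
    have h1 : B ⊔ Subgroup.zpowers z = B :=
      hBmax _ (IsElementaryAbelian.sup hB (IsElementaryAbelian.zpowers hzp) (by
        intro b _
        rw [Subgroup.mem_centralizer_iff]
        rintro _ ⟨k, rfl⟩
        exact ((Subgroup.mem_center_iff.mp (zpow_mem hzc k)) b).symm)) le_sup_left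
    rw [← h1]
    exact (le_sup_right : Subgroup.zpowers z ≤ _) (Subgroup.mem_zpowers z)
  have hn_ne : n = 2 := by
    by_contra hne
    have hn1 : n ≤ 1 := by omega
    have h1 : Nat.card B ≤ p := by
      rw [hn]
      calc p ^ n ≤ p ^ 1 := Nat.pow_le_pow_right hp.out.pos hn1
        _ = p := pow_one p
    have h2 : Subgroup.zpowers z = B :=
      Subgroup.eq_of_le_of_card_ge (Subgroup.zpowers_le.mpr hzB) (by rw [Nat.card_zpowers, hzo]; exact h1)
    have h3 : B ⊔ V = B := hBmax _ (IsElementaryAbelian.sup hB hVe (by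
      rw [← h2, Subgroup.zpowers_le, Subgroup.mem_centralizer_iff]
      intro v _
      exact Subgroup.mem_center_iff.mp hzc v)) le_sup_left
    have h4 : V ≤ B := by rw [← h3]; exact le_sup_right
    have h5 := card_le_of_le h4
    rw [hVc] at h5
    have h6 : p ^ 1 < p ^ 3 := Nat.pow_lt_pow_right hp1 (by norm_num)
    rw [pow_one] at h6
    omega
  exact narrow_of_max hp2 hR hrR B hB (by rw [hn, hn_ne]) hBmax

end Cfsg.Agent.BG
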